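import Mathlib
import Cfsg.Agent.Lib.Helper37.U27.Defs

set_option autoImplicit false

/-!
Shared helpers for the U27 (S5999) packages of helper87: the units `X`, `Z`, inverses.
-/

namespace Cfsg.Agent.Lib.Helper87.U27

open Matrix
open Cfsg.Agent.Lib.Helper37.U27

universe u

theorem xm_mul_transpose (F : Type u) [Field F] : Xm F * (Xm F)ᵀ = 1 := by
  ext i j
  fin_cases i <;> fin_cases j <;>
    simp [Xm, Matrix.mul_apply, Fin.sum_univ_three, Matrix.one_apply]

theorem xm_transpose_mul (F : Type u) [Field F] : (Xm F)ᵀ * Xm F = 1 := by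
  ext i j
  fin_cases i <;> fin_cases j <;>
    simp [Xm, Matrix.mul_apply, Fin.sum_univ_three, Matrix.one_apply]

/-- The unit `X`. -/
def Xu (F : Type u) [Field F] : GL (Fin 3) F :=
  ⟨Xm F, (Xm F)ᵀ, xm_mul_transpose F, xm_transpose_mul F⟩

theorem Xu_val (F : Type u) [Field F] : ((Xu F : GL (Fin 3) F) : Matrix (Fin 3) (Fin 3) F) = Xm F :=
  rfl

theorem zm_mul_inv {F : Type u} [Field F] (w : F) (hw3 : w ^ 3 = 1) :
    Zm w * Matrix.diagonal ![1, w ^ 2, w] = 1 := by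
  rw [Zm, Matrix.diagonal_mul_diagonal, ← Matrix.diagonal_one]
  congr 1
  funext i
  fin_cases i
  · simp
  · show w * w ^ 2 = 1
    linear_combination hw3
  · show w ^ 2 * w = 1
    linear_combination hw3

theorem zm_inv_mul {F : Type u} [Field F] (w : F) (hw3 : w ^ 3 = 1) :
    Matrix.diagonal ![1, w ^ 2, w] * Zm w = 1 := by
  rw [Zm, Matrix.diagonal_mul_diagonal, ← Matrix.diagonal_one]
  congr 1
  funext i
  fin_cases i
  · simp
  · show w ^ 2 * w = 1
    linear_combination hw3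
  · show w * w ^ 2 = 1
    linear_combination hw3

/-- The unit `Z`. -/
def Zu {F : Type u} [Field F] (w : F) (hw3 : w ^ 3 = 1) : GL (Fin 3) F :=
  ⟨Zm w, Matrix.diagonal ![1, w ^ 2, w], zm_mul_inv w hw3, zm_inv_mul w hw3⟩

theorem Zu_val {F : Type u} [Field F] (w : F) (hw3 : w ^ 3 = 1) :
    ((Zu w hw3 : GL (Fin 3) F) : Matrix (Fin 3) (Fin 3) F) = Zm w := rfl

theorem Xu_mem {F : Type u} [Field F] (w : F) : Xu F ∈ R0 w :=
  Subgroup.subset_closure (Or.inl rfl)

theorem Zu_mem {F : Type u} [Field F] (w : F) (hw3 : w ^ 3 = 1) : Zu w hw3 ∈ R0 w :=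
  Subgroup.subset_closure (Or.inr rfl)

/-- The inverse of a unit is determined by a right inverse of its matrix. -/
theorem inv_val_of_mul_eq_one {F : Type u} [Field F] (n : GL (Fin 3) F)
    (M : Matrix (Fin 3) (Fin 3) F) (h : (n : Matrix (Fin 3) (Fin 3) F) * M = 1) :
    ((n⁻¹ : GL (Fin 3) F) : Matrix (Fin 3) (Fin 3) F) = M := by
  calc ((n⁻¹ : GL (Fin 3) F) : Matrix (Fin 3) (Fin 3) F)
      = ((n⁻¹ : GL (Fin 3) F) : Matrix (Fin 3) (Fin 3) F) *
          ((n : Matrix (Fin 3) (Fin 3) F) * M) := by rw [h, Matrix.mul_one]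
    _ = M := by
        rw [← Matrix.mul_assoc, ← Units.val_mul, inv_mul_cancel, Units.val_one, Matrix.one_mul]

/-- Inverse of the generators. -/
theorem gen_inv_val_X {F : Type u} [Field F] (y : GL (Fin 3) F)
    (hy : (y : Matrix (Fin 3) (Fin 3) F) = Xm F) :
    ((y⁻¹ : GL (Fin 3) F) : Matrix (Fin 3) (Fin 3) F) = (Xm F)ᵀ :=
  inv_val_of_mul_eq_one y _ (by rw [hy]; exact xm_mul_transpose F)

theorem gen_inv_val_Z {F : Type u} [Field F] (w : F) (hw3 : w ^ 3 = 1) (y : GL (Fin 3) F)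
    (hy : (y : Matrix (Fin 3) (Fin 3) F) = Zm w) :
    ((y⁻¹ : GL (Fin 3) F) : Matrix (Fin 3) (Fin 3) F) = Matrix.diagonal ![1, w ^ 2, w] :=
  inv_val_of_mul_eq_one y _ (by rw [hy]; exact zm_mul_inv w hw3)

theorem gen_mem {F : Type u} [Field F] (w : F) (y : GL (Fin 3) F)
    (hy : (y : Matrix (Fin 3) (Fin 3) F) = Xm F ∨ (y : Matrix (Fin 3) (Fin 3) F) = Zm w) :
    y ∈ R0 w :=
  Subgroup.subset_closure hy

end Cfsg.Agent.Lib.Helper87.U27
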