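import Mathlib
import Cfsg.Agent.Lib.Helper37.U27.Defs
import Cfsg.Agent.Lib.Helper87.U27.Basic

set_option autoImplicit false

/-!
Package [WNORM] of S5999 (U27): the scalar multiples of `W` normalize `R0 w`.
-/

namespace Cfsg.Agent.Lib.Helper87.U27

open Matrix
open Cfsg.Agent.Lib.Helper37.U27

universe u

theorem wm_mul_wm (F : Type u) [Field F] : Wm F * Wm F = 1 := by
  ext i j
  fin_cases i <;> fin_cases j <;>
    simp [Wm, Matrix.mul_apply, Fin.sum_univ_three, Matrix.one_apply]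

theorem wm_xm_wm (F : Type u) [Field F] : Wm F * Xm F * Wm F = (Xm F)ᵀ := by
  ext i j
  fin_cases i <;> fin_cases j <;>
    simp [Wm, Xm, Matrix.mul_apply, Fin.sum_univ_three]

theorem wm_zm_wm {F : Type u} [Field F] (w : F) :
    Wm F * Zm w * Wm F = Matrix.diagonal ![1, w ^ 2, w] := by
  ext i j
  fin_cases i <;> fin_cases j <;>
    simp [Wm, Zm, Matrix.mul_apply, Fin.sum_univ_three, Matrix.diagonal_apply,
      Matrix.vecMul_diagonal]

/-- one half of the normalizer condition -/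
theorem wnorm_half {F : Type u} [Field F] (w : F) (hw3 : w ^ 3 = 1) (n : GL (Fin 3) F) (c : F)
    (hn : (n : Matrix (Fin 3) (Fin 3) F) = c • Wm F) (y : GL (Fin 3) F)
    (hy : (y : Matrix (Fin 3) (Fin 3) F) = Xm F ∨ (y : Matrix (Fin 3) (Fin 3) F) = Zm w) :
    n * y * n⁻¹ ∈ R0 w ∧ ((n⁻¹ : GL (Fin 3) F) : Matrix (Fin 3) (Fin 3) F) = c⁻¹ • Wm F := by
  have hc : c ≠ 0 := by
    rintro rfl
    have h1 : (n : Matrix (Fin 3) (Fin 3) F) * ((n⁻¹ : GL (Fin 3) F) : Matrix (Fin 3) (Fin 3) F)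
        = 1 := by rw [← Units.val_mul, mul_inv_cancel, Units.val_one]
    rw [hn, zero_smul, Matrix.zero_mul] at h1
    exact zero_ne_one h1
  have hinv : ((n⁻¹ : GL (Fin 3) F) : Matrix (Fin 3) (Fin 3) F) = c⁻¹ • Wm F := by
    apply inv_val_of_mul_eq_one
    rw [hn, Matrix.smul_mul, Matrix.mul_smul, smul_smul, wm_mul_wm, mul_inv_cancel₀ hc, one_smul]
  refine ⟨?_, hinv⟩
  have hconj : ((n * y * n⁻¹ : GL (Fin 3) F) : Matrix (Fin 3) (Fin 3) F)
      = Wm F * (y : Matrix (Fin 3) (Fin 3) F) * Wm F := by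
    rw [Units.val_mul, Units.val_mul, hn, hinv, Matrix.smul_mul, Matrix.smul_mul, Matrix.mul_smul,
      smul_smul, mul_inv_cancel₀ hc, one_smul]
  have hyinv : n * y * n⁻¹ = y⁻¹ := by
    apply Units.ext
    rw [hconj]
    rcases hy with hy | hy
    · rw [gen_inv_val_X y hy, hy, wm_xm_wm]
    · rw [gen_inv_val_Z w hw3 y hy, hy, wm_zm_wm]
  rw [hyinv]
  exact (R0 w).inv_mem (gen_mem w y hy)

/-- [WNORM] -/
theorem pkgWNorm_of (hD : Cfsg.Agent.Lib.Helper37.U27.PkgR0Diag.{u})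
    (hN : Cfsg.Agent.Lib.Helper37.U27.PkgNormR0.{u}) :
    Cfsg.Agent.Lib.Helper37.U27.PkgWNorm.{u} := by
  intro F _ w n c hw h3 hn
  have hw3 : w ^ 3 = 1 := by linear_combination (w - 1) * hw
  apply hN F w n
  intro y hy
  obtain ⟨h1, hinv⟩ := wnorm_half w hw3 n c hn y hy
  refine ⟨h1, ?_⟩
  have h2 := (wnorm_half w hw3 n⁻¹ c⁻¹ hinv y hy).1
  rw [inv_inv] at h2
  exact h2

end Cfsg.Agent.Lib.Helper87.U27
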