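import Mathlib
import Cfsg.Agent.Lib.Helper37.U27.Defs
import Cfsg.Agent.Lib.Helper87.U27.Basic

set_option autoImplicit false

/-!
Package [DNORM] of S5999 (U27): scalar multiples of diagonal matrices with cube-root-of-unity
entries normalize `R0 w`.
-/

namespace Cfsg.Agent.Lib.Helper87.U27

open Matrix
open Cfsg.Agent.Lib.Helper37.U27

universe u

theorem diag_xm_diag {F : Type u} [Field F] (d : Fin 3 → F) (hd0 : ∀ i, d i ≠ 0) :
    Matrix.diagonal d * Xm F * Matrix.diagonal (fun i => (d i)⁻¹) * (Xm F)ᵀ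
      = Matrix.diagonal ![d 0 / d 2, d 1 / d 0, d 2 / d 1] := by
  ext i j
  fin_cases i <;> fin_cases j <;>
    simp [Xm, Matrix.mul_apply, Fin.sum_univ_three, Matrix.diagonal_apply, div_eq_mul_inv]

/-- one half of the normalizer condition -/
theorem dnorm_half (hD : Cfsg.Agent.Lib.Helper37.U27.PkgR0Diag.{u})
    {F : Type u} [Field F] (w : F) (hw : w ^ 2 + w + 1 = 0) (h3 : (3 : F) ≠ 0)
    (n : GL (Fin 3) F) (c : F) (d : Fin 3 → F) (hd : ∀ i, d i ^ 3 = 1)
    (hn : (n : Matrix (Fin 3) (Fin 3) F) = c • Matrix.diagonal d) (y : GL (Fin 3) F)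
    (hy : (y : Matrix (Fin 3) (Fin 3) F) = Xm F ∨ (y : Matrix (Fin 3) (Fin 3) F) = Zm w) :
    n * y * n⁻¹ ∈ R0 w ∧
      ((n⁻¹ : GL (Fin 3) F) : Matrix (Fin 3) (Fin 3) F)
        = c⁻¹ • Matrix.diagonal (fun i => (d i)⁻¹) := by
  have hc : c ≠ 0 := by
    rintro rfl
    have h1 : (n : Matrix (Fin 3) (Fin 3) F) * ((n⁻¹ : GL (Fin 3) F) : Matrix (Fin 3) (Fin 3) F)
        = 1 := by rw [← Units.val_mul, mul_inv_cancel, Units.val_one]
    rw [hn, zero_smul, Matrix.zero_mul] at h1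
    exact zero_ne_one h1
  have hd0 : ∀ i, d i ≠ 0 := by
    intro i h
    have := hd i
    rw [h] at this
    simp at this
  have hdd : Matrix.diagonal d * Matrix.diagonal (fun i => (d i)⁻¹) = 1 := by
    rw [Matrix.diagonal_mul_diagonal, ← Matrix.diagonal_one]
    congr 1
    funext i
    exact mul_inv_cancel₀ (hd0 i)
  have hinv : ((n⁻¹ : GL (Fin 3) F) : Matrix (Fin 3) (Fin 3) F)
      = c⁻¹ • Matrix.diagonal (fun i => (d i)⁻¹) := by
    apply inv_val_of_mul_eq_one
    rw [hn, Matrix.smul_mul, Matrix.mul_smul, smul_smul, hdd, mul_inv_cancel₀ hc, one_smul]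
  refine ⟨?_, hinv⟩
  have hconj : ((n * y * n⁻¹ : GL (Fin 3) F) : Matrix (Fin 3) (Fin 3) F)
      = Matrix.diagonal d * (y : Matrix (Fin 3) (Fin 3) F) * Matrix.diagonal (fun i => (d i)⁻¹) := by
    rw [Units.val_mul, Units.val_mul, hn, hinv, Matrix.smul_mul, Matrix.smul_mul, Matrix.mul_smul,
      smul_smul, mul_inv_cancel₀ hc, one_smul]
  rcases hy with hy | hy
  · -- the generator X
    have hE : n * y * n⁻¹ * y⁻¹ ∈ R0 w := by
      apply hD F w (n * y * n⁻¹ * y⁻¹) ![d 0 / d 2, d 1 / d 0, d 2 / d 1] hw h3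
      · intro i
        fin_cases i
        · show (d 0 / d 2) ^ 3 = 1
          rw [div_pow, hd, hd, div_one]
        · show (d 1 / d 0) ^ 3 = 1
          rw [div_pow, hd, hd, div_one]
        · show (d 2 / d 1) ^ 3 = 1
          rw [div_pow, hd, hd, div_one]
      · show d 0 / d 2 * (d 1 / d 0) * (d 2 / d 1) = 1
        have h0 := hd0 0
        have h1 := hd0 1
        have h2 := hd0 2
        field_simp
      · rw [Units.val_mul, hconj, gen_inv_val_X y hy, hy]
        exact diag_xm_diag d hd0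
    have : n * y * n⁻¹ = n * y * n⁻¹ * y⁻¹ * y := by group
    rw [this]
    exact (R0 w).mul_mem hE (gen_mem w y (Or.inl hy))
  · -- the generator Z
    have : n * y * n⁻¹ = y := by
      apply Units.ext
      rw [hconj, hy, Zm, Matrix.diagonal_mul_diagonal, Matrix.diagonal_mul_diagonal]
      congr 1
      funext i
      have := hd0 i
      field_simp
    rw [this]
    exact gen_mem w y (Or.inr hy)

/-- [DNORM] -/
theorem pkgDNorm_of (hD : Cfsg.Agent.Lib.Helper37.U27.PkgR0Diag.{u})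
    (hN : Cfsg.Agent.Lib.Helper37.U27.PkgNormR0.{u}) :
    Cfsg.Agent.Lib.Helper37.U27.PkgDNorm.{u} := by
  intro F _ w n c d hw h3 hd hn
  apply hN F w n
  intro y hy
  obtain ⟨h1, hinv⟩ := dnorm_half hD w hw h3 n c d hd hn y hy
  refine ⟨h1, ?_⟩
  have hd' : ∀ i, (d i)⁻¹ ^ 3 = 1 := by
    intro i
    rw [inv_pow, hd, inv_one]
  have h2 := (dnorm_half hD w hw h3 n⁻¹ c⁻¹ (fun i => (d i)⁻¹) hd' hinv y hy).1
  rw [inv_inv] at h2
  exact h2

end Cfsg.Agent.Lib.Helper87.U27
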