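import Mathlib
import Cfsg.Agent.Lib.Helper37.U27.Defs

set_option autoImplicit false

/-!
Package [EIGV] of S5999 (U27): a 3×3 matrix with `A³ = 1` has an eigenvector whose eigenvalue is
a cube root of unity (the cube roots of unity lie in `F`).
-/

namespace Cfsg.Agent.Lib.Helper87.U27

open Matrix

universe u

/-- [EIGV] -/
theorem pkgEigV : Cfsg.Agent.Lib.Helper37.U27.PkgEigV.{u} := by
  intro F _ A w hw hA
  have hw3 : w ^ 3 = 1 := by linear_combination (w - 1) * hw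
  have e1 : -(w ^ 2) - w = 1 := by linear_combination -hw
  have e2 : w * w ^ 2 = 1 := by linear_combination hw3
  obtain ⟨u, hu⟩ : ∃ u : Fin 3 → F, u ≠ 0 := by
    refine ⟨Pi.single 0 1, ?_⟩
    intro h
    have := congrFun h 0
    simp at this
  have hA3 : ∀ x : Fin 3 → F, A *ᵥ (A *ᵥ (A *ᵥ x)) = x := by
    intro x
    rw [Matrix.mulVec_mulVec, Matrix.mulVec_mulVec, ← pow_two, ← pow_succ, hA, Matrix.one_mulVec]
  by_cases h1 : A *ᵥ u = w ^ 2 • u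
  · refine ⟨u, hu, w ^ 2, ?_, h1⟩
    rw [← pow_mul, mul_comm, pow_mul, hw3, one_pow]
  by_cases h2 : A *ᵥ (A *ᵥ u - w ^ 2 • u) = w • (A *ᵥ u - w ^ 2 • u)
  · exact ⟨A *ᵥ u - w ^ 2 • u, sub_ne_zero.mpr h1, w, hw3, h2⟩
  refine ⟨A *ᵥ (A *ᵥ u - w ^ 2 • u) - w • (A *ᵥ u - w ^ 2 • u), sub_ne_zero.mpr h2, 1, one_pow 3,
    ?_⟩
  have hv2 : A *ᵥ (A *ᵥ u - w ^ 2 • u) - w • (A *ᵥ u - w ^ 2 • u)
      = A *ᵥ (A *ᵥ u) + A *ᵥ u + u := by
    rw [Matrix.mulVec_sub, Matrix.mulVec_smul]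
    have : A *ᵥ (A *ᵥ u) - w ^ 2 • A *ᵥ u - w • (A *ᵥ u - w ^ 2 • u)
        = A *ᵥ (A *ᵥ u) + (-(w ^ 2) - w) • A *ᵥ u + (w * w ^ 2) • u := by
      module
    rw [this, e1, e2, one_smul, one_smul]
  rw [hv2, Matrix.mulVec_add, Matrix.mulVec_add, hA3, one_smul]
  abel

end Cfsg.Agent.Lib.Helper87.U27
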