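import Mathlib
import Cfsg.Agent.Lib.Helper37.U27.Defs
import Cfsg.Agent.Lib.Helper87.U27.Basic

set_option autoImplicit false

/-!
Package [NSCAL] of S5999 (U27): if a conjugate of `x` normalizes `R0 w` and `x ^ r` is scalar
(`r ≥ 5` prime) then `x` is scalar.
-/

namespace Cfsg.Agent.Lib.Helper87.U27

open Matrix
open Cfsg.Agent.Lib.Helper37.U27

universe u

/-- the scalar unit `w • 1` -/
def scalU {F : Type u} [Field F] (w : F) (hw3 : w ^ 3 = 1) : GL (Fin 3) F :=
  ⟨w • 1, w ^ 2 • 1,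
    by rw [Matrix.smul_mul, Matrix.mul_smul, smul_smul, Matrix.mul_one,
        show w * w ^ 2 = 1 by linear_combination hw3, one_smul],
    by rw [Matrix.smul_mul, Matrix.mul_smul, smul_smul, Matrix.mul_one,
        show w ^ 2 * w = 1 by linear_combination hw3, one_smul]⟩

/-- [NSCAL] -/
theorem pkgNScal_of (hD : Cfsg.Agent.Lib.Helper37.U27.PkgR0Diag.{u})
    (hC : Cfsg.Agent.Lib.Helper37.U27.PkgR0Cent.{u})
    (hN : Cfsg.Agent.Lib.Helper37.U27.PkgNOrb.{u}) :
    Cfsg.Agent.Lib.Helper37.U27.PkgNScal.{u} := by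
  intro F _ w x k r z hw h3 hcard hr h5 hk hz
  have hw3 : w ^ 3 = 1 := by linear_combination (w - 1) * hw
  have hw1 : w ≠ 1 := by
    rintro rfl
    apply h3
    linear_combination hw
  -- the element `y`
  obtain ⟨y, hy⟩ : ∃ y : GL (Fin 3) F, y = k⁻¹ * x * k := ⟨_, rfl⟩
  rw [← hy] at hk
  have hk1 : ((k⁻¹ : GL (Fin 3) F) : Matrix (Fin 3) (Fin 3) F) * (k : Matrix (Fin 3) (Fin 3) F)
      = 1 := by rw [← Units.val_mul, inv_mul_cancel, Units.val_one]
  have hk2 : (k : Matrix (Fin 3) (Fin 3) F) * ((k⁻¹ : GL (Fin 3) F) : Matrix (Fin 3) (Fin 3) F)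
      = 1 := by rw [← Units.val_mul, mul_inv_cancel, Units.val_one]
  have hyr : ((y ^ r : GL (Fin 3) F) : Matrix (Fin 3) (Fin 3) F)
      = z • (1 : Matrix (Fin 3) (Fin 3) F) := by
    have : y ^ r = k⁻¹ * x ^ r * k := by
      rw [hy]
      have h := map_pow (MulAut.conj k⁻¹) x r
      simp only [MulAut.conj_apply, inv_inv] at h
      exact h.symm
    rw [this, Units.val_mul, Units.val_mul, hz, Matrix.mul_smul, Matrix.mul_one, Matrix.smul_mul,
      hk1]
  have hyrc : ∀ a ∈ R0 w, y ^ r * a = a * y ^ r := by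
    intro a _
    apply Units.ext
    rw [Units.val_mul, Units.val_mul, hyr, Matrix.smul_mul, Matrix.mul_smul, Matrix.one_mul,
      Matrix.mul_one]
  -- the central element `s`
  have hs : scalU w hw3 ∈ R0 w := by
    apply hD F w (scalU w hw3) (fun _ => w) hw h3
    · intro _; exact hw3
    · show w * w * w = 1
      linear_combination hw3
    · show w • (1 : Matrix (Fin 3) (Fin 3) F) = Matrix.diagonal (fun _ => w)
      rw [Matrix.smul_one_eq_diagonal]
  have hs1 : scalU w hw3 ≠ 1 := by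
    intro h
    have h1 := congrArg (fun u : GL (Fin 3) F => (u : Matrix (Fin 3) (Fin 3) F) 0 0) h
    have h2 : (w • (1 : Matrix (Fin 3) (Fin 3) F)) 0 0 = (1 : Matrix (Fin 3) (Fin 3) F) 0 0 := h1
    simp at h2
    exact hw1 h2
  have hys : y * scalU w hw3 = scalU w hw3 * y := by
    apply Units.ext
    show (y : Matrix (Fin 3) (Fin 3) F) * (w • 1) = (w • 1) * (y : Matrix (Fin 3) (Fin 3) F)
    rw [Matrix.smul_mul, Matrix.mul_smul, Matrix.one_mul, Matrix.mul_one]
  have hcomm := hN (GL (Fin 3) F) (R0 w) y (scalU w hw3) r hcard hk hs hs1 hys hr h5 hyrc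
  have hX : (y : Matrix (Fin 3) (Fin 3) F) * Xm F = Xm F * (y : Matrix (Fin 3) (Fin 3) F) := by
    have h := congrArg Units.val (hcomm (Xu F) (Xu_mem w))
    rw [Units.val_mul, Units.val_mul, Xu_val] at h
    exact h
  have hZ : (y : Matrix (Fin 3) (Fin 3) F) * Zm w = Zm w * (y : Matrix (Fin 3) (Fin 3) F) := by
    have h := congrArg Units.val (hcomm (Zu w hw3) (Zu_mem w hw3))
    rw [Units.val_mul, Units.val_mul, Zu_val] at h
    exact h
  obtain ⟨c, hc⟩ := hC F w (y : Matrix (Fin 3) (Fin 3) F) hw h3 hX hZ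
  refine ⟨c, ?_⟩
  have hx : x = k * y * k⁻¹ := by rw [hy]; group
  rw [hx, Units.val_mul, Units.val_mul, hc, Matrix.mul_smul, Matrix.mul_one, Matrix.smul_mul, hk2]

end Cfsg.Agent.Lib.Helper87.U27
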