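import Mathlib
import Cfsg.Agent.Lib.Helper37.U27.Defs

set_option autoImplicit false

/-!
Package [R0CENT] of S5999 (U27): a matrix commuting with the shift `X` and the clock `Z` is scalar.
-/

namespace Cfsg.Agent.Lib.Helper87.U27

open Matrix
open Cfsg.Agent.Lib.Helper37.U27

universe u

/-- [R0CENT] -/
theorem pkgR0Cent : Cfsg.Agent.Lib.Helper37.U27.PkgR0Cent.{u} := by
  intro F _ w M hw h3 hX hZ
  have hw3 : w ^ 3 = 1 := by linear_combination (w - 1) * hw
  have hw1 : w ≠ 1 := by
    rintro rfl
    apply h3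
    linear_combination hw
  have hw0 : w ≠ 0 := by
    rintro rfl
    simp at hw3
  have hw21 : w ^ 2 ≠ 1 := by
    intro h
    apply h3
    have hw' : w = -2 := by linear_combination hw - h
    rw [hw'] at h
    linear_combination h
  have hw2w : w ^ 2 ≠ w := by
    intro h
    apply hw1
    have h' : w * (w - 1) = 0 := by linear_combination h
    rcases mul_eq_zero.mp h' with h'' | h''
    · exact absurd h'' hw0
    · linear_combination h''
  have hzne : ∀ i j : Fin 3, i ≠ j → (![1, w, w ^ 2] : Fin 3 → F) j ≠ ![1, w, w ^ 2] i := by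
    intro i j hij
    fin_cases i <;> fin_cases j
    · exact absurd rfl hij
    · show w ≠ 1
      exact hw1
    · show w ^ 2 ≠ 1
      exact hw21
    · show (1 : F) ≠ w
      exact fun h => hw1 h.symm
    · exact absurd rfl hij
    · show w ^ 2 ≠ w
      exact hw2w
    · show (1 : F) ≠ w ^ 2
      exact fun h => hw21 h.symm
    · show w ≠ w ^ 2
      exact fun h => hw2w h.symm
    · exact absurd rfl hij
  have hz : ∀ i j, M i j * (![1, w, w ^ 2] : Fin 3 → F) j = (![1, w, w ^ 2] : Fin 3 → F) i * M i j := by
    intro i j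
    have h := congrFun (congrFun hZ i) j
    rw [Zm, Matrix.mul_diagonal, Matrix.diagonal_mul] at h
    exact h
  have hoff : ∀ i j, i ≠ j → M i j = 0 := by
    intro i j hij
    have h := hz i j
    have hne : (![1, w, w ^ 2] : Fin 3 → F) j - ![1, w, w ^ 2] i ≠ 0 := sub_ne_zero.mpr (hzne i j hij)
    have h0 : M i j * ((![1, w, w ^ 2] : Fin 3 → F) j - ![1, w, w ^ 2] i) = 0 := by
      linear_combination h
    exact (mul_eq_zero.mp h0).resolve_right hne
  have h10 := congrFun (congrFun hX 1) 0
  have h21 := congrFun (congrFun hX 2) 1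
  simp [Xm, Matrix.mul_apply, Fin.sum_univ_three] at h10 h21
  refine ⟨M 0 0, ?_⟩
  ext i j
  fin_cases i <;> fin_cases j
  · simp
  · simpa using hoff 0 1 (by decide)
  · simpa using hoff 0 2 (by decide)
  · simpa using hoff 1 0 (by decide)
  · simp [h10]
  · simpa using hoff 1 2 (by decide)
  · simpa using hoff 2 0 (by decide)
  · simpa using hoff 2 1 (by decide)
  · simp [h21, h10]

end Cfsg.Agent.Lib.Helper87.U27
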